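import Cfsg.Agent.BX.Sv.Th16
import Cfsg.Agent.BX.P11.Fields
import Cfsg.Agent.BX.Max.Iface
import Cfsg.Agent.HNType.Simple
import Cfsg.Agent.S1606
set_option linter.all false

/-!
# S5527: the fields `th` and `m22` of `BX.Max.Sieve` (helper27)
-/

set_option autoImplicit false
set_option maxRecDepth 100000

namespace Cfsg.Agent.BX.Sv

open Cfsg Subgroup Cfsg.Agent.OrdDiv Cfsg.Agent.H940.Eng Cfsg.Agent.H940.Eng.D

/-- a simple group with the order of `Th` has no element of order 16 -/
theorem th (B : Base) (S : Type) [Group S] [Finite S] (hS : IsSimpleGroup S) (hc : Nat.card S = 90745943887872000)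
    (s : S) : orderOf s ≠ 16 := by
  have h : Real .th S := P11.real_of_card B hS (l := l_th) v_th (by norm_num [n_th]) hc (by decide +kernel)
  exact Th16.no16_iso h s

/-- the two-point stabiliser -/
def e22 : ↥(MulAction.stabilizer Cfsg.M24 (none : GolayPt) ⊓ MulAction.stabilizer Cfsg.M24 (some 0 : GolayPt)) ≃*
    Cfsg.Spor.M22 where
  toFun g := ⟨g.1.1, ⟨g.1.2, g.2.1⟩, g.2.2⟩
  invFun g := ⟨⟨g.1, g.2.1.1⟩, g.2.1.2, g.2.2⟩
  left_inv _ := rfl
  right_inv _ := rfl
  map_mul' _ _ := rfl

/-- a simple group with the order of `M₂₂` has no subgroup isomorphic to `M₁₁` -/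
theorem m22 (B : Base) (S : Type) [Group S] [Finite S] (hS : IsSimpleGroup S) (hc : Nat.card S = 443520)
    (K : Subgroup S) : IsEmpty (K ≃* Max.TM) := by
  have h : Real .m22 S := P11.real_of_card B hS (l := l_m22) v_m22 (by norm_num [n_m22]) hc (by decide +kernel)
  obtain ⟨e⟩ := h
  refine ⟨fun f => ?_⟩
  have h1 : Nat.card K = 7920 := (Nat.card_congr f.toEquiv).trans HNType.Alt.card_M11
  have h2 : K.index = 56 := by
    have := K.card_mul_index
    rw [h1, hc] at this
    omega
  have h3 := (S1606.result (none : GolayPt) (some 0) (by simp) (K.map (e.trans e22.symm).toMonoidHom)).1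
  exact h3 ((K.index_map_equiv (e.trans e22.symm)).trans h2)

end Cfsg.Agent.BX.Sv
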